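import Mathlib

/-!
The Remak–Krull–Schmidt theorem for finite groups: a decomposition into directly indecomposable
factors is unique up to isomorphism of the factors.
-/

set_option autoImplicit false

namespace CfsgLib.Remak

open Function

section endo

variable {A : Type*} [Group A]

/-- An endomorphism commuting with all inner automorphisms. -/
def IsNormalEndo (f : A →* A) : Prop := ∀ g x : A, f (g * x * g⁻¹) = g * f x * g⁻¹

/-- A group which is not the internal direct product of two nontrivial normal subgroups. -/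
def IndecProd (A : Type*) [Group A] : Prop :=
  ∀ H K : Subgroup A, H.Normal → K.Normal → H ⊓ K = ⊥ → H ⊔ K = ⊤ → H = ⊥ ∨ K = ⊥

lemma exists_idem_iterate [Finite A] (f : A → A) : ∃ n, 0 < n ∧ ∀ x, f^[n] (f^[n] x) = f^[n] x := by
  obtain ⟨i, j, hij, h⟩ := Finite.exists_ne_map_eq_of_infinite (fun k : ℕ => f^[k])
  wlog hlt : i < j generalizing i j
  · exact this j i hij.symm h.symm (by omega)
  obtain ⟨d, rfl⟩ : ∃ d, j = i + d := ⟨j - i, by omega⟩
  have hd : 0 < d := by omega
  have hper : ∀ k t, i ≤ k → f^[k + d * t] = f^[k] := by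
    intro k t hk
    induction t with
    | zero => simp
    | succ t ih =>
      rw [show k + d * (t + 1) = (k + d * t - i) + (i + d) by ring_nf; omega, iterate_add,
        ← h, ← iterate_add, show k + d * t - i + i = k + d * t by omega, ih]
  refine ⟨d * (i + 1), Nat.mul_pos hd (by omega), fun x => ?_⟩
  rw [← iterate_add_apply, hper (d * (i + 1)) (i + 1)
    (le_trans (by omega) (Nat.le_mul_of_pos_left _ hd))]

/-- A normal endomorphism of an indecomposable finite group with a nontrivial fixed point is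
injective. -/
lemma injective_of_fixed [Finite A] (hA : IndecProd A) (f : A →* A) (hf : IsNormalEndo f)
    {x : A} (hx : x ≠ 1) (hfx : f x = x) : Injective f := by
  obtain ⟨n, hn, hidem⟩ := exists_idem_iterate f
  let F : Monoid.End A := f
  let p : A →* A := F ^ n
  have hp : ∀ y, p y = (⇑f)^[n] y := fun y => congrFun (Monoid.End.coe_pow A F n) y
  have hnorm : ∀ g y, p (g * y * g⁻¹) = g * p y * g⁻¹ := by
    intro g y
    simp only [hp]
    clear hp hn hidem p
    induction n with
    | zero => rfl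
    | succ m ih => rw [iterate_succ_apply', ih, hf, iterate_succ_apply']
  have hR : p.range.Normal := ⟨by rintro _ ⟨y, rfl⟩ g; exact ⟨g * y * g⁻¹, hnorm g y⟩⟩
  have hdisj : p.ker ⊓ p.range = ⊥ := by
    rw [eq_bot_iff]
    rintro y ⟨hy, z, rfl⟩
    have hy' : p (p z) = 1 := hy
    rw [hp (p z), hp z, hidem] at hy'
    rw [Subgroup.mem_bot, hp, hy']
  have hjoin : p.ker ⊔ p.range = ⊤ := by
    rw [eq_top_iff]
    intro y _
    rw [show y = y * (p y)⁻¹ * p y by group]
    refine mul_mem (Subgroup.mem_sup_left ?_) (Subgroup.mem_sup_right ⟨y, rfl⟩)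
    rw [MonoidHom.mem_ker, map_mul, map_inv]
    simp [hp, hidem]
  rcases hA p.ker p.range inferInstance hR hdisj hjoin with hk | hr
  · rw [MonoidHom.ker_eq_bot_iff] at hk
    intro a b hab
    apply hk
    rw [hp, hp]
    obtain ⟨m, rfl⟩ := Nat.exists_eq_succ_of_ne_zero hn.ne'
    rw [iterate_succ_apply, iterate_succ_apply, hab]
  · exfalso
    apply hx
    have hmem : x ∈ p.range := ⟨x, by rw [hp]; exact iterate_fixed hfx n⟩
    rwa [hr, Subgroup.mem_bot] at hmem

/-- If a normal automorphism is the product of two normal endomorphisms, one of them is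
injective. -/
lemma injective_or_of_mul [Finite A] (hA : IndecProd A) (θ f g : A →* A) (hθ : IsNormalEndo θ)
    (hg : IsNormalEndo g) (hinj : Injective θ) (hmul : ∀ x, θ x = f x * g x) :
    Injective f ∨ Injective g := by
  by_contra! h
  obtain ⟨hf', hg'⟩ := h
  rw [injective_iff_map_eq_one] at hf'
  push Not at hf'
  obtain ⟨x, hx1, hx⟩ := hf'
  let e : A ≃* A := MulEquiv.ofBijective θ ⟨hinj, Finite.injective_iff_surjective.1 hinj⟩
  have he : ∀ a, e a = θ a := fun a => rfl
  apply hg'
  have hh : IsNormalEndo (e.symm.toMonoidHom.comp g) := by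
    intro c y
    change e.symm (g _) = c * e.symm (g y) * c⁻¹
    rw [MulEquiv.symm_apply_eq, he, hθ, ← he, MulEquiv.apply_symm_apply, hg]
  have := injective_of_fixed hA _ hh hx (by
    change e.symm (g x) = x
    rw [MulEquiv.symm_apply_eq, he, hmul, hx1, one_mul])
  exact (e.symm.injective.of_comp_iff g).1 this

end endo

section exchange

variable {A C : Type*} [Group A] [Group C] {ι : Type*} [DecidableEq ι] {B : ι → Type*}
  [∀ i, Group (B i)]

/-- Forgetting the coordinates outside `s`. -/
def restr (s : Finset ι) : ((i : ι) → B i) →* ((i : ι) → B i) where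
  toFun y i := if i ∈ s then y i else 1
  map_one' := by funext i; simp
  map_mul' x y := by funext i; by_cases h : i ∈ s <;> simp [h]

lemma restr_apply (s : Finset ι) (y : (i : ι) → B i) (i : ι) :
    restr s y i = if i ∈ s then y i else 1 := rfl

/-- The component endomorphism of `A` through the coordinates in `s`. -/
def comp (e : A × C ≃* ((i : ι) → B i)) (s : Finset ι) : A →* A :=
  (MonoidHom.fst A C).comp (e.symm.toMonoidHom.comp
    ((restr s).comp (e.toMonoidHom.comp (MonoidHom.inl A C))))

lemma comp_apply (e : A × C ≃* ((i : ι) → B i)) (s : Finset ι) (x : A) :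
    comp e s x = (e.symm (restr s (e (x, 1)))).1 := rfl

lemma comp_normal (e : A × C ≃* ((i : ι) → B i)) (s : Finset ι) : IsNormalEndo (comp e s) := by
  intro g x
  have h0 : e (g * x * g⁻¹, 1) = e (g, 1) * e (x, 1) * (e (g, 1))⁻¹ := by
    rw [← map_inv e, ← map_mul e, ← map_mul e]
    simp
  have h1 : restr s (e (g * x * g⁻¹, 1)) = e (g, 1) * restr s (e (x, 1)) * (e (g, 1))⁻¹ := by
    funext i
    rw [h0]
    by_cases h : i ∈ s <;> simp only [restr_apply, h, Pi.mul_apply, Pi.inv_apply, if_true, if_false,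
      mul_one, mul_inv_cancel]
  rw [comp_apply, comp_apply, h1]
  simp only [map_mul e.symm, map_inv e.symm, MulEquiv.symm_apply_apply, Prod.fst_mul, Prod.fst_inv]

lemma exists_injective_single [Finite A] [Nontrivial A] (hA : IndecProd A)
    (e : A × C ≃* ((i : ι) → B i)) (s : Finset ι) (hs : Injective (comp e s)) :
    ∃ j ∈ s, Injective (comp e {j}) := by
  induction s using Finset.induction with
  | empty =>
    obtain ⟨a, ha⟩ := exists_ne (1 : A)
    have h0 : ∀ y : (i : ι) → B i, restr ∅ y = 1 := fun y => by funext i; simp [restr_apply]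
    exact absurd (hs (a₁ := a) (a₂ := 1) (by simp [comp_apply, h0])) ha
  | @insert i s hi ih =>
    have hmul : ∀ x, comp e (insert i s) x = comp e {i} x * comp e s x := by
      intro x
      have : restr (insert i s) (e (x, 1)) = restr {i} (e (x, 1)) * restr s (e (x, 1)) := by
        funext k
        by_cases h : k = i
        · subst h; simp [restr_apply, hi]
        · by_cases h' : k ∈ s <;> simp [restr_apply, h, h']
      simp [comp_apply, this]
    rcases injective_or_of_mul hA _ _ _ (comp_normal e _) (comp_normal e _) hs hmul with h | h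
    · exact ⟨i, Finset.mem_insert_self i s, h⟩
    · obtain ⟨j, hj, h'⟩ := ih h
      exact ⟨j, Finset.mem_insert_of_mem hj, h'⟩

end exchange

/-- Exchange: an indecomposable factor is isomorphic to some factor `B j`, and then the
complements are isomorphic. -/
theorem exchange {n : ℕ} {A C : Type*} [Group A] [Group C] [Finite A] [Nontrivial A]
    {B : Fin (n + 1) → Type*} [∀ i, Group (B i)] (hA : IndecProd A)
    (hB : ∀ i, IndecProd (B i)) (e : A × C ≃* ((i : Fin (n + 1)) → B i)) :
    ∃ j, Nonempty (A ≃* B j) ∧ Nonempty (C ≃* ((k : Fin n) → B (j.succAbove k))) := by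
  have huniv : Injective (comp e (Finset.univ : Finset (Fin (n + 1)))) := by
    intro a b h
    have h0 : ∀ y : (i : Fin (n + 1)) → B i, restr Finset.univ y = y := fun y => by
      funext i; simp [restr_apply]
    simpa [comp_apply, h0] using h
  obtain ⟨j, -, hj⟩ := exists_injective_single hA e _ huniv
  let σ : A →* B j :=
    (Pi.evalMonoidHom B j).comp (e.toMonoidHom.comp (MonoidHom.inl A C))
  let ρ : B j →* A :=
    (MonoidHom.fst A C).comp (e.symm.toMonoidHom.comp (MonoidHom.mulSingle B j))
  have hcomp : ∀ x, comp e {j} x = ρ (σ x) := by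
    intro x
    change (e.symm (restr {j} (e (x, 1)))).1 = (e.symm (Pi.mulSingle j ((e (x, 1)) j))).1
    congr 2
    funext k
    by_cases h : k = j
    · subst h; simp [restr_apply]
    · simp [restr_apply, h]
  have hbij : Bijective (comp e {j}) := ⟨hj, Finite.injective_iff_surjective.1 hj⟩
  have hσ : Injective σ := fun a b h => hj (by rw [hcomp, hcomp, h])
  have hσn : σ.range.Normal := ⟨by
    rintro _ ⟨x, rfl⟩ b
    refine ⟨ρ b * x * (ρ b)⁻¹, ?_⟩
    have h1 : ((ρ b * x * (ρ b)⁻¹, 1) : A × C)
        = e.symm (Pi.mulSingle j b) * (x, 1) * (e.symm (Pi.mulSingle j b))⁻¹ := by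
      ext <;> simp [ρ]
    change e (ρ b * x * (ρ b)⁻¹, 1) j = b * e (x, 1) j * b⁻¹
    rw [h1, map_mul, map_mul, map_inv]
    simp⟩
  have hker : ρ.ker = ⊥ := by
    have hdisj : σ.range ⊓ ρ.ker = ⊥ := by
      rw [eq_bot_iff]
      rintro _ ⟨⟨x, rfl⟩, hx⟩
      have hx' : ρ (σ x) = 1 := hx
      rw [← hcomp, ← map_one (comp e {j})] at hx'
      rw [hj hx']
      simp
    have hjoin : σ.range ⊔ ρ.ker = ⊤ := by
      rw [eq_top_iff]
      intro b _
      obtain ⟨x, hx⟩ := hbij.2 (ρ b)
      rw [show b = σ x * ((σ x)⁻¹ * b) by group]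
      refine mul_mem (Subgroup.mem_sup_left ⟨x, rfl⟩) (Subgroup.mem_sup_right ?_)
      rw [MonoidHom.mem_ker, map_mul, map_inv, ← hcomp, hx, inv_mul_cancel]
    rcases hB j σ.range ρ.ker hσn inferInstance hdisj hjoin with h | h
    · exfalso
      obtain ⟨a, ha⟩ := exists_ne (1 : A)
      have : σ a ∈ σ.range := ⟨a, rfl⟩
      rw [h, Subgroup.mem_bot, ← map_one σ] at this
      exact ha (hσ this)
    · exact h
  have hρ : Bijective ρ := ⟨(MonoidHom.ker_eq_bot_iff ρ).1 hker, fun a => by
    obtain ⟨x, hx⟩ := hbij.2 a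
    exact ⟨σ x, by rw [← hcomp, hx]⟩⟩
  refine ⟨j, ⟨(MulEquiv.ofBijective ρ hρ).symm⟩, ?_⟩
  let χ : C →* ((k : Fin n) → B (j.succAbove k)) :=
    MonoidHom.pi fun k => (Pi.evalMonoidHom B (j.succAbove k)).comp
      (e.toMonoidHom.comp (MonoidHom.inr A C))
  refine ⟨MulEquiv.ofBijective χ ⟨?_, ?_⟩⟩
  · rw [injective_iff_map_eq_one]
    intro c hc
    have h1 : e (1, c) = Pi.mulSingle j (e (1, c) j) := by
      funext k
      rcases Fin.eq_self_or_eq_succAbove j k with rfl | ⟨l, rfl⟩
      · simp
      · rw [Pi.mulSingle_eq_of_ne (Fin.succAbove_ne j l)]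
        exact congrFun hc l
    have h2 : ρ (e (1, c) j) = 1 := by
      change (e.symm (Pi.mulSingle j (e (1, c) j))).1 = 1
      rw [← h1, MulEquiv.symm_apply_apply]
    rw [hρ.1 (h2.trans (map_one ρ).symm), Pi.mulSingle_one] at h1
    simpa using h1
  · intro y
    obtain ⟨b, hb⟩ := hρ.2 (e.symm (j.insertNth 1 y)).1
    refine ⟨(e.symm ((Pi.mulSingle j b)⁻¹ * j.insertNth 1 y)).2, funext fun k => ?_⟩
    have h1 : ((1, (e.symm ((Pi.mulSingle j b)⁻¹ * j.insertNth 1 y)).2) : A × C)
        = e.symm ((Pi.mulSingle j b)⁻¹ * j.insertNth 1 y) := by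
      refine Prod.ext ?_ rfl
      rw [map_mul, map_inv, Prod.fst_mul, Prod.fst_inv]
      exact (inv_mul_eq_one.2 hb).symm
    change e (1, _) (j.succAbove k) = y k
    rw [h1, MulEquiv.apply_symm_apply]
    simp [Pi.mulSingle_eq_of_ne (Fin.succAbove_ne j k)]

/-- Removing one coordinate from a product of groups. -/
def piSplit {n : ℕ} (B : Fin (n + 1) → Type*) [∀ i, Group (B i)] (j : Fin (n + 1)) :
    ((i : Fin (n + 1)) → B i) ≃* B j × ((k : Fin n) → B (j.succAbove k)) :=
  { toFun := fun y => (y j, fun k => y (j.succAbove k))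
    invFun := fun p => j.insertNth p.1 p.2
    left_inv := fun y => Fin.insertNth_self_removeNth j y
    right_inv := fun p => by ext <;> simp
    map_mul' := fun x y => rfl }

universe u v

/-- The Remak–Krull–Schmidt theorem for finite groups. -/
theorem unique : ∀ {m n : ℕ} {A : Fin m → Type u} {B : Fin n → Type v} [∀ i, Group (A i)]
    [∀ j, Group (B j)] [∀ i, Finite (A i)] (_ : ∀ i, Nontrivial (A i) ∧ IndecProd (A i))
    (_ : ∀ j, Nontrivial (B j) ∧ IndecProd (B j))
    (_ : ((i : Fin m) → A i) ≃* ((j : Fin n) → B j)),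
    ∃ σ : Fin m ≃ Fin n, ∀ i, Nonempty (A i ≃* B (σ i)) := by
  intro m
  induction m with
  | zero =>
    intro n A B _ _ _ _ hB e
    rcases n with _ | n
    · exact ⟨Equiv.refl _, fun i => i.elim0⟩
    · haveI : Subsingleton ((j : Fin (n + 1)) → B j) := e.symm.toEquiv.subsingleton
      obtain ⟨x, hx⟩ := @exists_ne _ (hB 0).1 (1 : B 0)
      exact absurd (congrFun (Subsingleton.elim (Pi.mulSingle 0 x) 1) 0) (by simpa using hx)
  | succ m ih =>
    intro n A B _ _ _ hA hB e
    rcases n with _ | n
    · haveI : Subsingleton ((i : Fin (m + 1)) → A i) := e.toEquiv.subsingleton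
      obtain ⟨x, hx⟩ := @exists_ne _ (hA 0).1 (1 : A 0)
      exact absurd (congrFun (Subsingleton.elim (Pi.mulSingle 0 x) 1) 0) (by simpa using hx)
    · haveI := (hA 0).1
      obtain ⟨j, ⟨f⟩, ⟨g⟩⟩ := exchange (hA 0).2 (fun i => (hB i).2) ((piSplit A 0).symm.trans e)
      obtain ⟨τ, hτ⟩ := ih (A := fun k => A ((0 : Fin (m + 1)).succAbove k))
        (B := fun k => B (j.succAbove k)) (fun k => hA _) (fun k => hB _) g
      refine ⟨(finSuccEquiv' 0).trans ((Equiv.optionCongr τ).trans (finSuccEquiv' j).symm), ?_⟩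
      intro i
      rcases Fin.eq_self_or_eq_succAbove (0 : Fin (m + 1)) i with rfl | ⟨l, rfl⟩
      · exact ⟨f.trans (MulEquiv.cast (M := B) (by simp))⟩
      · obtain ⟨h⟩ := hτ l
        refine ⟨h.trans (MulEquiv.cast (M := B) ?_)⟩
        change _ = (finSuccEquiv' j).symm ((Equiv.optionCongr τ) (finSuccEquiv' 0 (Fin.succAbove 0 l)))
        rw [finSuccEquiv'_succAbove, Equiv.optionCongr_apply, Option.map_some, finSuccEquiv'_symm_some]

end CfsgLib.Remak
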